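import Mathlib

/-!
Counting lemmas for Jordan's beam argument: divisibility of sums over partitions and an
"Egyptian fraction" finiteness statement.
-/

set_option autoImplicit false

namespace Cfsg.Agent.Grp.Beam

universe u

open Finset

/-- `o` assigns to every point of `s` its class in a partition of `s`. -/
structure IsPart {X : Type u} (s : Finset X) (o : X → Finset X) : Prop where
  mem : ∀ x ∈ s, x ∈ o x
  sub : ∀ x ∈ s, o x ⊆ s
  eq : ∀ x ∈ s, ∀ y ∈ o x, o y = o x

theorem IsPart.sdiff {X : Type u} [DecidableEq X] {s : Finset X} {o : X → Finset X}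
    (h : IsPart s o) {x : X} (hx : x ∈ s) : IsPart (s \ o x) o where
  mem y hy := h.mem y (mem_sdiff.1 hy).1
  sub y hy z hz := by
    obtain ⟨hy1, hy2⟩ := mem_sdiff.1 hy
    refine mem_sdiff.2 ⟨h.sub y hy1 hz, fun hzx => hy2 ?_⟩
    rw [← h.eq x hx z hzx, h.eq y hy1 z hz]
    exact h.mem y hy1
  eq y hy z hz := h.eq y (mem_sdiff.1 hy).1 z hz

theorem IsPart.dvd_sum {X : Type u} {o : X → Finset X} (w : X → ℕ) (N D : ℕ) :
    ∀ s : Finset X, IsPart s o → (∀ x ∈ s, N ∣ D * ∑ y ∈ o x, w y) → N ∣ D * ∑ y ∈ s, w y := by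
  classical
  intro s
  induction s using Finset.strongInduction with
  | H s ih =>
    intro h hw
    rcases s.eq_empty_or_nonempty with rfl | ⟨x, hx⟩
    · simp
    have hss : s \ o x ⊂ s := sdiff_ssubset (h.sub x hx) ⟨x, h.mem x hx⟩
    have h1 := ih _ hss (h.sdiff hx) fun y hy => hw y (mem_sdiff.1 hy).1
    rw [← sum_sdiff (h.sub x hx), mul_add]
    exact dvd_add h1 (hw x hx)

theorem egypt (r : ℕ) : ∀ D : ℕ, 0 < D → ∃ B : ℕ, ∀ (X : Type u) (s : Finset X)
    (o : X → Finset X) (v : X → ℕ) (W N : ℕ), 0 < W → 0 < N → IsPart s o →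
    (∀ x ∈ s, 2 ≤ (o x).card ∧ (o x).card ∣ N ∧ W ≤ (o x).card * v x ∧ W ≤ ∑ y ∈ o x, v y) →
    ∑ y ∈ s, v y ≤ r * W → D * s.card ≡ D [MOD N] → N ≤ B := by
  classical
  have base : ∀ D N : ℕ, 0 < D → D * (∅ : Finset ℕ).card ≡ D [MOD N] → N ≤ D := by
    intro D N hD h
    simp only [card_empty, mul_zero] at h
    exact Nat.le_of_dvd hD ((Nat.modEq_zero_iff_dvd).1 h.symm)
  induction r with
  | zero =>
    intro D hD
    refine ⟨D, fun X s o v W N hW hN h hs hv hmod => ?_⟩
    rcases s.eq_empty_or_nonempty with rfl | ⟨x, hx⟩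
    · exact base D N hD (by simpa using hmod)
    · have h1 := (hs x hx).2.2.2
      have h2 : ∑ y ∈ o x, v y ≤ ∑ y ∈ s, v y := sum_le_sum_of_subset (h.sub x hx)
      omega
  | succ r ih =>
    intro D hD
    obtain ⟨B, hB⟩ := ih (D * (D * (r + 1)).factorial) (Nat.mul_pos hD (Nat.factorial_pos _))
    refine ⟨max D B, fun X s o v W N hW hN h hs hv hmod => ?_⟩
    rcases s.eq_empty_or_nonempty with rfl | hne
    · exact le_max_of_le_left (base D N hD (by simpa using hmod))
    obtain ⟨x, hx, hmax⟩ := exists_max_image s (fun y => (o y).card) hne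
    refine le_max_of_le_right ?_
    obtain ⟨h2, ⟨n', hn'⟩, -, hWx⟩ := hs x hx
    have hcard : s.card = (s \ o x).card + (o x).card := (card_sdiff_add_card_eq_card (h.sub x hx)).symm
    have hsW : s.card * W ≤ (o x).card * ((r + 1) * W) := by
      calc s.card * W = ∑ _y ∈ s, W := by simp
        _ ≤ ∑ y ∈ s, (o x).card * v y :=
          sum_le_sum fun y hy => (hs y hy).2.2.1.trans (Nat.mul_le_mul_right _ (hmax y hy))
        _ = (o x).card * ∑ y ∈ s, v y := by rw [mul_sum]
        _ ≤ _ := Nat.mul_le_mul_left _ hv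
    have hs1 : s.card ≤ (o x).card * (r + 1) := by
      rw [← mul_assoc] at hsW
      exact Nat.le_of_mul_le_mul_right hsW hW
    have hND : N ≤ D * s.card := by
      have hle : D ≤ D * s.card := Nat.le_mul_of_pos_right _ (by omega)
      have hd : N ∣ D * s.card - D := (Nat.modEq_iff_dvd' hle).1 hmod.symm
      have hpos : 0 < D * s.card - D := by
        have : D * 2 ≤ D * s.card := Nat.mul_le_mul_left _ (by omega)
        omega
      exact (Nat.le_of_dvd hpos hd).trans (Nat.sub_le _ _)
    have hn'pos : 0 < n' := by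
      rcases Nat.eq_zero_or_pos n' with rfl | h0
      · omega
      · exact h0
    have hn'le : n' ≤ D * (r + 1) := by
      have h3 : (o x).card * n' ≤ (o x).card * (D * (r + 1)) := by
        calc (o x).card * n' = N := hn'.symm
          _ ≤ D * s.card := hND
          _ ≤ D * ((o x).card * (r + 1)) := Nat.mul_le_mul_left _ hs1
          _ = _ := by ring
      exact Nat.le_of_mul_le_mul_left h3 (by omega)
    have hdv : N ∣ D * (D * (r + 1)).factorial * (o x).card := by
      obtain ⟨c, hc⟩ := Nat.dvd_factorial hn'pos hn'le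
      rw [hc, hn']
      exact ⟨D * c, by ring⟩
    refine hB X (s \ o x) o v W N hW hN (h.sdiff hx) (fun y hy => hs y (mem_sdiff.1 hy).1) ?_ ?_
    · have := sum_sdiff (f := v) (h.sub x hx)
      have h5 : (r + 1) * W = r * W + W := by ring
      omega
    · have h6 : D * (D * (r + 1)).factorial * s.card ≡ D * (D * (r + 1)).factorial [MOD N] := by
        have := hmod.mul_right (D * (r + 1)).factorial
        convert this using 1
        ring
      rw [hcard, mul_add] at h6
      have h7 : D * (D * (r + 1)).factorial * (s \ o x).card +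
          D * (D * (r + 1)).factorial * (o x).card ≡
          D * (D * (r + 1)).factorial * (s \ o x).card + 0 [MOD N] :=
        Nat.ModEq.add_left _ ((Nat.modEq_zero_iff_dvd).2 hdv)
      simpa using h7.symm.trans h6

end Cfsg.Agent.Grp.Beam
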