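import Mathlib
import Cfsg.Agent.Grp.BeamCount

/-!
Jordan's beams (faisceaux): abelian subgroups whose centralizer does not grow on passing to a
subgroup of bounded index.
-/

set_option autoImplicit false
set_option linter.unusedSectionVars false

namespace Cfsg.Agent.Grp.Beam

universe u

open Subgroup

variable {G : Type u} [Group G] [Finite G] {M : ℕ}

/-- An `M`-beam. -/
def IsBeam (M : ℕ) (F : Subgroup G) : Prop :=
  (∀ a ∈ F, ∀ b ∈ F, a * b = b * a) ∧
    ∀ B : Subgroup G, B.relIndex F ≤ M → ∀ x : G, (∀ b ∈ B, b ∈ F → x * b = b * x) →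
      ∀ f ∈ F, x * f = f * x

/-- `F` is maximal among the beams centralized by `g`. -/
def MaxB (M : ℕ) (F : Subgroup G) (g : G) : Prop :=
  IsBeam M F ∧ (∀ f ∈ F, g * f = f * g) ∧
    ∀ F' : Subgroup G, IsBeam M F' → (∀ f ∈ F', g * f = f * g) → F ≤ F' → F' ≤ F

theorem relIndex_ne_zero' (A B : Subgroup G) : A.relIndex B ≠ 0 :=
  (A.subgroupOf B).index_ne_zero_of_finite

theorem comm_sup {x : G} {A B : Subgroup G} (hA : ∀ a ∈ A, x * a = a * x)
    (hB : ∀ a ∈ B, x * a = a * x) : ∀ a ∈ A ⊔ B, x * a = a * x := by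
  have h : A ⊔ B ≤ centralizer {x} := by
    refine sup_le (fun a ha => ?_) (fun a ha => ?_)
    · exact mem_centralizer_singleton_iff.2 (hA a ha).symm
    · exact mem_centralizer_singleton_iff.2 (hB a ha).symm
  exact fun a ha => (mem_centralizer_singleton_iff.1 (h ha)).symm

theorem IsBeam.sup {A B : Subgroup G} (hA : IsBeam M A) (hB : IsBeam M B)
    (h : ∀ a ∈ A, ∀ b ∈ B, a * b = b * a) : IsBeam M (A ⊔ B) := by
  refine ⟨fun x hx => ?_, fun C hC x hx => comm_sup ?_ ?_⟩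
  · refine comm_sup (fun a ha => ?_) (fun b hb => ?_)
    · exact (comm_sup (hA.1 a ha) (h a ha) x hx).symm
    · exact (comm_sup (fun a ha => (h a ha b hb).symm) (hB.1 b hb) x hx).symm
  · exact hA.2 C ((relIndex_le_of_le_right le_sup_left (relIndex_ne_zero' _ _)).trans hC) x
      fun b hb hb' => hx b hb (mem_sup_left hb')
  · exact hB.2 C ((relIndex_le_of_le_right le_sup_right (relIndex_ne_zero' _ _)).trans hC) x
      fun b hb hb' => hx b hb (mem_sup_right hb')

theorem isBeam_center : IsBeam M (center G) :=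
  ⟨fun a _ _ hb => mem_center_iff.1 hb a, fun _ _ x _ _ hf => mem_center_iff.1 hf x⟩

theorem IsBeam.comap {F : Subgroup G} (hF : IsBeam M F) (φ : G ≃* G) :
    IsBeam M (F.comap φ.toMonoidHom) := by
  refine ⟨fun a ha b hb => φ.injective (by simpa using hF.1 _ ha _ hb), fun B hB x hx f hf => ?_⟩
  apply φ.injective
  rw [map_mul, map_mul]
  refine hF.2 (B.map φ.toMonoidHom) ?_ (φ x) ?_ _ hf
  · have h1 : F = (F.comap φ.toMonoidHom).map φ.toMonoidHom :=
      (map_comap_eq_self_of_surjective φ.surjective F).symm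
    rw [h1, relIndex_map_map_of_injective _ _ φ.injective]
    exact hB
  · rintro _ ⟨b, hb, rfl⟩ hbF
    have := hx b hb hbF
    simpa using congrArg φ this

theorem MaxB.comap {F : Subgroup G} {g : G} (h : MaxB M F g) (φ : G ≃* G) :
    MaxB M (F.comap φ.toMonoidHom) (φ.symm g) := by
  refine ⟨h.1.comap φ, fun f hf => φ.injective (by simpa using h.2.1 _ hf),
    fun F' hF' hg hle f hf => ?_⟩
  refine h.2.2 (F'.comap φ.symm.toMonoidHom) (hF'.comap φ.symm) (fun a ha => ?_)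
    (fun a ha => hle ?_) ?_
  · apply φ.symm.injective
    rw [map_mul, map_mul]
    exact hg _ ha
  · simpa using ha
  · simpa using hf

theorem MaxB.mul {F : Subgroup G} {g f : G} (h : MaxB M F g) (hf : f ∈ F) : MaxB M F (g * f) := by
  refine ⟨h.1, fun a ha => ?_, fun F' hF' hg hle => h.2.2 F' hF' (fun a ha => ?_) hle⟩
  · rw [mul_assoc, h.1.1 f hf a ha, ← mul_assoc, h.2.1 a ha, mul_assoc]
  · have h1 := hg a ha
    have h2 := hF'.1 f (hle hf) a ha
    rw [mul_assoc, h2, ← mul_assoc, ← mul_assoc] at h1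
    exact mul_right_cancel h1

theorem MaxB.center_le {F : Subgroup G} {g : G} (h : MaxB M F g) : center G ≤ F :=
  le_sup_right.trans (h.2.2 (F ⊔ center G)
    (h.1.sup isBeam_center fun a _ _ hb => mem_center_iff.1 hb a)
    (comm_sup h.2.1 fun _ ha => mem_center_iff.1 ha g) le_sup_left)

theorem maxB_center {F : Subgroup G} {z : G} (hz : z ∈ center G) : MaxB M F z ↔ MaxB M F 1 := by
  constructor
  · intro h
    simpa using h.mul (F.inv_mem (h.center_le hz))
  · intro h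
    simpa using h.mul (h.center_le hz)

/-- Every abelian subgroup contains a beam of bounded index. -/
theorem exists_beam (hM : 0 < M) (c : ℕ) (ht : Subgroup G → ℕ) (hc : ∀ A, ht A ≤ c)
    (hlt : ∀ A B : Subgroup G, B ≤ A → ∀ x : G, (∀ b ∈ B, x * b = b * x) →
      (¬ ∀ a ∈ A, x * a = a * x) → ht A < ht B) (k : ℕ) :
    ∀ A : Subgroup G, (∀ a ∈ A, ∀ b ∈ A, a * b = b * a) → c ≤ ht A + k →
      ∃ F : Subgroup G, IsBeam M F ∧ F ≤ A ∧ F.relIndex A ≤ M ^ k := by
  induction k with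
  | zero =>
    intro A hA hk
    refine ⟨A, ⟨hA, fun B _ x hx => ?_⟩, le_rfl, by simp⟩
    by_contra hn
    have h1 := hlt A (B ⊓ A) inf_le_right x (fun b hb => hx b hb.1 hb.2) hn
    have h2 := hc (B ⊓ A)
    omega
  | succ k ih =>
    intro A hA hk
    by_cases hb : IsBeam M A
    · exact ⟨A, hb, le_rfl, by simpa using Nat.one_le_pow _ _ hM⟩
    have : ∃ B : Subgroup G, B.relIndex A ≤ M ∧ ∃ x : G, (∀ b ∈ B, b ∈ A → x * b = b * x) ∧
        ¬ ∀ f ∈ A, x * f = f * x := by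
      by_contra hn
      push Not at hn
      exact hb ⟨hA, fun B hB x hx => hn B hB x hx⟩
    obtain ⟨B, hB, x, hx, hn⟩ := this
    have h1 := hlt A (B ⊓ A) inf_le_right x (fun b hb => hx b hb.1 hb.2) hn
    obtain ⟨F, hF, hle, hi⟩ := ih (B ⊓ A) (fun a ha b hb => hA a ha.2 b hb.2) (by omega)
    refine ⟨F, hF, hle.trans inf_le_right, ?_⟩
    rw [← relIndex_mul_relIndex F (B ⊓ A) A hle inf_le_right, inf_relIndex_right, pow_succ]
    exact Nat.mul_le_mul hi hB

/-- Beams inside a subgroup with an abelian subgroup of small index commute. -/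
theorem beams_commute {H A F₁ F₂ : Subgroup G} (hA : ∀ a ∈ A, ∀ b ∈ A, a * b = b * a)
    (hAH : A.relIndex H ≤ M) (h₁ : IsBeam M F₁) (h₂ : IsBeam M F₂) (l₁ : F₁ ≤ H) (l₂ : F₂ ≤ H) :
    ∀ a ∈ F₁, ∀ b ∈ F₂, a * b = b * a := by
  intro a ha
  refine h₂.2 A ((relIndex_le_of_le_right l₂ (relIndex_ne_zero' _ _)).trans hAH) a
    fun b hb _ => ?_
  exact (h₁.2 A ((relIndex_le_of_le_right l₁ (relIndex_ne_zero' _ _)).trans hAH) b
    (fun a' ha' _ => hA b hb a' ha') a ha).symm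

/-- The unique maximal beam in a centralizer with an abelian subgroup of small index. -/
theorem exists_maxB (hM : 0 < M) (c : ℕ) (ht : Subgroup G → ℕ) (hc : ∀ A, ht A ≤ c)
    (hlt : ∀ A B : Subgroup G, B ≤ A → ∀ x : G, (∀ b ∈ B, x * b = b * x) →
      (¬ ∀ a ∈ A, x * a = a * x) → ht A < ht B) (g : G) {A : Subgroup G}
    (hA : ∀ a ∈ A, ∀ b ∈ A, a * b = b * a) (hAg : A ≤ centralizer {g})
    (hAH : A.relIndex (centralizer {g}) ≤ M) :
    ∃ F : Subgroup G, MaxB M F g ∧ (∀ F', MaxB M F' g → F' = F) ∧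
      F.relIndex (centralizer {g}) ≤ M ^ (c + 1) := by
  classical
  obtain ⟨F₀, hF₀, hle, hi⟩ := exists_beam hM c ht hc hlt c A hA (by omega)
  have hiff : ∀ F : Subgroup G, (∀ f ∈ F, g * f = f * g) ↔ F ≤ centralizer {g} := fun F =>
    ⟨fun h f hf => mem_centralizer_singleton_iff.2 (h f hf).symm,
      fun h f hf => (mem_centralizer_singleton_iff.1 (h hf)).symm⟩
  obtain ⟨F, hF0, hF⟩ := Finite.exists_le_maximal
    (p := fun F : Subgroup G => IsBeam M F ∧ ∀ f ∈ F, g * f = f * g) (a := F₀)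
    ⟨hF₀, (hiff _).2 (hle.trans hAg)⟩
  have hmax : MaxB M F g := ⟨hF.1.1, hF.1.2, fun F' h1 h2 h3 => hF.2 ⟨h1, h2⟩ h3⟩
  refine ⟨F, hmax, fun F' hF' => ?_, ?_⟩
  · have hs : IsBeam M (F' ⊔ F) := hF'.1.sup hmax.1
      (beams_commute hA hAH hF'.1 hmax.1 ((hiff _).1 hF'.2.1) ((hiff _).1 hmax.2.1))
    have hg : ∀ f ∈ F' ⊔ F, g * f = f * g := comm_sup hF'.2.1 hmax.2.1
    exact le_antisymm (le_sup_left.trans (hmax.2.2 _ hs hg le_sup_right))
      (le_sup_right.trans (hF'.2.2 _ hs hg le_sup_left))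
  · refine (relIndex_le_of_le_left hF0 (relIndex_ne_zero' _ _)).trans ?_
    rw [← relIndex_mul_relIndex F₀ A _ hle hAg, pow_succ]
    exact Nat.mul_le_mul hi hAH

end Cfsg.Agent.Grp.Beam
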