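import Mathlib
import Cfsg.Agent.Grp.Beam

/-!
Jordan's beam argument in abstract form: if centralizers of non-central elements have abelian
subgroups of bounded index, chains of centralizers are bounded, and conjugacy classes meet abelian
subgroups in boundedly many points, then the group has an abelian subgroup of bounded index.
-/

set_option autoImplicit false
set_option linter.unusedSectionVars false

namespace Cfsg.Agent.Grp.Beam

universe u

open Subgroup

variable {G : Type u} [Group G] [Finite G] {M : ℕ}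

/-- The orbit as a finset. -/
noncomputable def orb (G : Type u) [Group G] [Finite G] {X : Type u} [MulAction G X] (x : X) :
    Finset X :=
  (Set.finite_range fun g : G => g • x).toFinset

theorem mem_orb {X : Type u} [MulAction G X] {x y : X} : y ∈ orb G x ↔ ∃ g : G, g • x = y := by
  simp [orb]

theorem isPart_orb {X : Type u} [MulAction G X] (s : Finset X)
    (hs : ∀ x ∈ s, ∀ g : G, g • x ∈ s) : IsPart s (orb G) where
  mem x _ := mem_orb.2 ⟨1, one_smul _ _⟩
  sub x hx y hy := by
    obtain ⟨g, rfl⟩ := mem_orb.1 hy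
    exact hs x hx g
  eq x _ y hy := by
    obtain ⟨g, rfl⟩ := mem_orb.1 hy
    ext z
    simp only [mem_orb]
    constructor
    · rintro ⟨h, rfl⟩
      exact ⟨h * g, mul_smul _ _ _⟩
    · rintro ⟨h, rfl⟩
      exact ⟨h * g⁻¹, by rw [mul_smul, inv_smul_smul]⟩

theorem card_orb {X : Type u} [MulAction G X] (x : X) :
    (orb G x).card = (MulAction.stabilizer G x).index := by
  rw [MulAction.index_stabilizer, orb]
  exact (Set.ncard_eq_toFinset_card _ _).symm

theorem sum_orb {X : Type u} [MulAction G X] (x : X) (w : X → ℕ) (hw : ∀ g : G, w (g • x) = w x) :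
    ∑ y ∈ orb G x, w y = (orb G x).card * w x := by
  rw [Finset.sum_congr rfl (g := fun _ => w x)]
  · simp
  · intro y hy
    obtain ⟨g, rfl⟩ := mem_orb.1 hy
    exact hw g

/-- Pairs (subgroup, subset), with the conjugation action. -/
def Pr (G : Type u) [Group G] : Type u := Subgroup G × Set G

/-- The conjugate `h F h⁻¹`. -/
def cj (h : G) (F : Subgroup G) : Subgroup G := F.comap (MulAut.conj h⁻¹ : G ≃* G).toMonoidHom

theorem mem_cj {h x : G} {F : Subgroup G} : x ∈ cj h F ↔ h⁻¹ * x * h ∈ F := by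
  simp [cj]

theorem card_cj (h : G) (F : Subgroup G) : Nat.card (cj h F) = Nat.card F := by
  have h1 := (cj h F).card_mul_index
  have h2 := F.card_mul_index
  have h3 : (cj h F).index = F.index := index_comap_of_surjective _ (MulAut.conj h⁻¹).surjective
  rw [h3, ← h2] at h1
  exact Nat.eq_of_mul_eq_mul_right (Nat.pos_of_ne_zero F.index_ne_zero_of_finite) h1

theorem MaxB.cj {F : Subgroup G} {g : G} (hF : MaxB M F g) (h : G) :
    MaxB M (cj h F) (h * g * h⁻¹) := by
  have h1 := hF.comap (MulAut.conj h⁻¹)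
  have h2 : (MulAut.conj h⁻¹ : G ≃* G).symm g = h * g * h⁻¹ := by simp
  rw [h2] at h1
  exact h1

theorem cj_le_center {F : Subgroup G} {h : G} (hF : cj h F ≤ center G) : F ≤ center G := by
  intro f hf
  have h1 : h * f * h⁻¹ ∈ center G := hF (mem_cj.2 (by simpa [mul_assoc] using hf))
  have h2 := (inferInstance : (center G).Normal).conj_mem _ h1 h⁻¹
  simpa [mul_assoc] using h2

instance instMulActionPr : MulAction G (Pr G) where
  smul h x := (cj h x.1, {y | h⁻¹ * y * h ∈ x.2})
  one_smul x := by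
    refine Prod.ext ?_ ?_
    · ext y
      change y ∈ cj 1 x.1 ↔ _
      simp [mem_cj]
    · ext y
      change (1 : G)⁻¹ * y * 1 ∈ x.2 ↔ _
      simp
  mul_smul a b x := by
    refine Prod.ext ?_ ?_
    · ext y
      change y ∈ cj (a * b) x.1 ↔ y ∈ cj a (cj b x.1)
      simp [mem_cj, mul_assoc]
    · ext y
      change (a * b)⁻¹ * y * (a * b) ∈ x.2 ↔ b⁻¹ * (a⁻¹ * y * a) * b ∈ x.2
      simp [mul_assoc]

/-- The pair `(F, gF)`. -/
def pr (F : Subgroup G) (g : G) : Pr G := (F, {y | g⁻¹ * y ∈ F})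

theorem smul_fst (h : G) (x : Pr G) : (h • x).1 = cj h x.1 := rfl

theorem smul_pr (h : G) (F : Subgroup G) (g : G) :
    h • pr F g = pr (cj h F) (h * g * h⁻¹) := by
  refine Prod.ext rfl ?_
  ext y
  change g⁻¹ * (h⁻¹ * y * h) ∈ F ↔ (h * g * h⁻¹)⁻¹ * y ∈ cj h F
  simp [mem_cj, mul_assoc]

theorem pr_eq_iff {F F' : Subgroup G} {g g' : G} :
    pr F g = pr F' g' ↔ F = F' ∧ g⁻¹ * g' ∈ F := by
  constructor
  · intro h
    have h1 : F = F' := congrArg Prod.fst h
    subst h1
    have h2 : {y | g⁻¹ * y ∈ F} = {y | g'⁻¹ * y ∈ F} := congrArg Prod.snd h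
    have h3 : g' ∈ {y | g'⁻¹ * y ∈ F} := by simp
    rw [← h2] at h3
    exact ⟨rfl, h3⟩
  · rintro ⟨rfl, h⟩
    refine Prod.ext rfl ?_
    ext y
    change g⁻¹ * y ∈ F ↔ g'⁻¹ * y ∈ F
    constructor
    · intro hy
      simpa [mul_assoc] using F.mul_mem (F.inv_mem h) hy
    · intro hy
      simpa [mul_assoc] using F.mul_mem h hy

theorem card_stab {T L : ℕ} {F : Subgroup G} {g : G} (hF : MaxB M F g)
    (hL : F.relIndex (centralizer {g}) ≤ L)
    (hT : ∀ E : Subgroup G, (∀ a ∈ E, ∀ b ∈ E, a * b = b * a) → ∀ t : G,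
      {e | e ∈ E ∧ IsConj t e}.ncard ≤ T) :
    ∃ j : ℕ, 0 < j ∧ j ≤ T * L ∧ Nat.card (MulAction.stabilizer G (pr F g)) = j * Nat.card F := by
  classical
  set St := MulAction.stabilizer G (pr F g) with hSt
  have hmem : ∀ h : G, h ∈ St → g⁻¹ * (h * g * h⁻¹) ∈ F := fun h hh => by
    have h1 : h • pr F g = pr F g := hh
    rw [smul_pr] at h1
    exact (pr_eq_iff.1 h1.symm).2
  have hFSt : F ≤ St := fun f hf => by
    change f • pr F g = pr F g
    rw [smul_pr]
    refine (pr_eq_iff.2 ⟨?_, ?_⟩).symm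
    · ext y
      rw [mem_cj]
      constructor
      · intro hy
        exact F.mul_mem (F.mul_mem (F.inv_mem hf) hy) hf
      · intro hy
        simpa [mul_assoc] using F.mul_mem (F.mul_mem hf hy) (F.inv_mem hf)
    · rw [← hF.2.1 f hf]
      simp
  have hFC : F ≤ centralizer {g} := fun f hf => mem_centralizer_singleton_iff.2 (hF.2.1 f hf).symm
  have hc1 : ∀ K : Subgroup G, F ≤ K → Nat.card K = F.relIndex K * Nat.card F := fun K hK => by
    rw [← (F.subgroupOf K).card_mul_index, Nat.card_congr (subgroupOfEquivOfLe hK).toEquiv,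
      mul_comm]
    rfl
  refine ⟨F.relIndex St, Nat.pos_of_ne_zero (relIndex_ne_zero' _ _), ?_, hc1 _ hFSt⟩
  have hE : ∀ a ∈ F ⊔ zpowers g, ∀ b ∈ F ⊔ zpowers g, a * b = b * a := by
    have h1 : ∀ f ∈ F, ∀ a ∈ zpowers g, f * a = a * f := fun f hf a ha => by
      obtain ⟨k, rfl⟩ := mem_zpowers_iff.1 ha
      exact ((show Commute g f from hF.2.1 f hf).zpow_left k).symm.eq
    have h2 : ∀ b ∈ zpowers g, ∀ a ∈ zpowers g, b * a = a * b := fun b hb a ha => by
      obtain ⟨k, rfl⟩ := mem_zpowers_iff.1 ha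
      obtain ⟨l, rfl⟩ := mem_zpowers_iff.1 hb
      exact (Commute.zpow_zpow_self g l k).eq
    intro a ha
    refine comm_sup (fun f hf => ?_) (fun b hb => ?_)
    · exact (comm_sup (hF.1.1 f hf) (h1 f hf) a ha).symm
    · exact (comm_sup (fun f hf => (h1 f hf b hb).symm) (h2 b hb) a ha).symm
  have hTE := hT _ hE g
  have := Fintype.ofFinite G
  have key : (Finset.univ.filter (· ∈ St)).card ≤ Nat.card (centralizer ({g} : Set G)) *
      ((Finset.univ.filter (· ∈ St)).image fun h => h * g * h⁻¹).card := by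
    refine Finset.card_le_mul_card_image _ _ fun b hb => ?_
    obtain ⟨h₀, -, rfl⟩ := Finset.mem_image.1 hb
    rw [Nat.card_eq_fintype_card, Fintype.card_subtype]
    refine Finset.card_le_card_of_injOn (fun h => h₀⁻¹ * h) (fun h hh => ?_)
      (fun a _ b _ hab => mul_left_cancel hab)
    simp only [Finset.coe_filter, Finset.mem_filter, Finset.mem_univ, true_and,
      Set.mem_ofPred_eq] at hh ⊢
    rw [mem_centralizer_singleton_iff]
    have h3 := hh.2
    calc h₀⁻¹ * h * g = h₀⁻¹ * (h * g * h⁻¹) * h := by group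
      _ = h₀⁻¹ * (h₀ * g * h₀⁻¹) * h := by rw [h3]
      _ = _ := by group
  have himg : ((Finset.univ.filter (· ∈ St)).image fun h => h * g * h⁻¹).card ≤ T := by
    refine le_trans ?_ hTE
    rw [← Set.ncard_coe_finset]
    refine Set.ncard_le_ncard (fun e he => ?_) (Set.toFinite _)
    obtain ⟨h, hh, rfl⟩ := Finset.mem_image.1 he
    refine ⟨?_, isConj_iff.2 ⟨h, rfl⟩⟩
    have h4 := (F ⊔ zpowers g).mul_mem (mem_sup_right (mem_zpowers g))
      (mem_sup_left (hmem h (Finset.mem_filter.1 hh).2))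
    simpa using h4
  have hcard : (Finset.univ.filter (· ∈ St)).card = Nat.card St := by
    rw [Nat.card_eq_fintype_card, Fintype.card_subtype]
  rw [hcard, hc1 _ hFSt, hc1 _ hFC] at key
  have h5 : F.relIndex St * Nat.card F ≤ T * L * Nat.card F := by
    calc _ ≤ _ := key
      _ ≤ L * Nat.card F * T := Nat.mul_le_mul (Nat.mul_le_mul_right _ hL) himg
      _ = _ := by ring
  exact Nat.le_of_mul_le_mul_right h5 Nat.card_pos

theorem beam_bound (L c T : ℕ) : ∃ N : ℕ, ∀ (G : Type u) [Group G] [Finite G],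
    (∀ g : G, g ∉ center G → ∃ A : Subgroup G, (∀ a ∈ A, ∀ b ∈ A, a * b = b * a) ∧
      A ≤ centralizer {g} ∧ A.relIndex (centralizer {g}) ≤ L) →
    (∃ ht : Subgroup G → ℕ, (∀ A, ht A ≤ c) ∧ ∀ A B : Subgroup G, B ≤ A → ∀ x : G,
      (∀ b ∈ B, x * b = b * x) → (¬ ∀ a ∈ A, x * a = a * x) → ht A < ht B) →
    (∀ E : Subgroup G, (∀ a ∈ E, ∀ b ∈ E, a * b = b * a) → ∀ t : G,
      {e | e ∈ E ∧ IsConj t e}.ncard ≤ T) →
    ∃ A : Subgroup G, (∀ a ∈ A, ∀ b ∈ A, a * b = b * a) ∧ A.index ≤ N := by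
  classical
  set M := L + 1 with hMdef
  set K := T * M ^ (c + 1) with hK
  obtain ⟨B, hB⟩ := egypt.{u} (2 * K) K.factorial (Nat.factorial_pos _)
  refine ⟨max K B, fun G _ _ hC ⟨ht, hc, hlt⟩ hT => ?_⟩
  have := Fintype.ofFinite G
  have := Fintype.ofFinite (Subgroup G)
  have huniq : ∀ g : G, g ∉ center G → ∃ F : Subgroup G, MaxB M F g ∧
      (∀ F', MaxB M F' g → F' = F) ∧ F.relIndex (centralizer {g}) ≤ M ^ (c + 1) := fun g hg => by
    obtain ⟨A, hA, hAg, hAL⟩ := hC g hg
    exact exists_maxB (by omega) c ht hc hlt g hA hAg (by omega)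
  -- stabilizer bound
  have hstab : ∀ (F : Subgroup G) (g : G), MaxB M F g → ¬ (F ≤ center G ∧ g ∈ center G) →
      ∃ j : ℕ, 0 < j ∧ j ≤ K ∧
        Nat.card (MulAction.stabilizer G (pr F g)) = j * Nat.card F := by
    have aux : ∀ (F : Subgroup G) (g : G), MaxB M F g → g ∉ center G →
        ∃ j : ℕ, 0 < j ∧ j ≤ K ∧
          Nat.card (MulAction.stabilizer G (pr F g)) = j * Nat.card F := fun F g hF hg => by
      obtain ⟨F', -, h2, h3⟩ := huniq g hg
      rw [← h2 F hF] at h3
      exact card_stab hF h3 hT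
    intro F g hF hn
    by_cases hg : g ∈ center G
    · obtain ⟨f, hf, hfZ⟩ := SetLike.not_le_iff_exists.1 fun h => hn ⟨h, hg⟩
      have h1 : pr F g = pr F (g * f) := pr_eq_iff.2 ⟨rfl, by simpa using hf⟩
      rw [h1]
      exact aux F _ (hF.mul hf) fun h => hfZ ((center G).mul_mem_cancel_left hg |>.1 h)
    · exact aux F g hF hg
  set Y : Finset (Subgroup G × G) :=
    Finset.univ.filter fun y => MaxB M y.1 y.2 ∧ ¬ (y.1 ≤ center G ∧ y.2 ∈ center G) with hY
  set s₀ : Finset (Subgroup G) :=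
    Finset.univ.filter fun F => MaxB M F 1 ∧ ¬ F ≤ center G with hs₀
  have hmemY : ∀ y : Subgroup G × G, y ∈ Y ↔
      MaxB M y.1 y.2 ∧ ¬ (y.1 ≤ center G ∧ y.2 ∈ center G) := fun y => by simp [hY]
  have hmems : ∀ F : Subgroup G, F ∈ s₀ ↔ MaxB M F 1 ∧ ¬ F ≤ center G := fun F => by simp [hs₀]
  set Zs : Finset G := Finset.univ.filter (· ∈ center G) with hZs
  have hZcard : Zs.card = Nat.card (center G) := by
    rw [Nat.card_eq_fintype_card, Fintype.card_subtype]
  -- first count of `Y`
  have hY1 : Y.card + Zs.card = Nat.card G + Zs.card * s₀.card := by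
    have h1 : Y.card = ∑ g : G, (Y.filter fun y => y.2 = g).card :=
      Finset.card_eq_sum_card_fiberwise fun _ _ => Finset.mem_coe.2 (Finset.mem_univ _)
    have h2 : ∀ g : G, (Y.filter fun y => y.2 = g).card = if g ∈ center G then s₀.card else 1 := by
      intro g
      split_ifs with hg
      · refine Finset.card_bij (fun y _ => y.1) (fun y hy => ?_) (fun a ha b hb hab => ?_)
          (fun F hF => ?_)
        · obtain ⟨hy1, hy2⟩ := Finset.mem_filter.1 hy
          rw [hmemY, hy2] at hy1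
          exact (hmems _).2 ⟨(maxB_center hg).1 hy1.1, fun h => hy1.2 ⟨h, hg⟩⟩
        · exact Prod.ext hab ((Finset.mem_filter.1 ha).2.trans (Finset.mem_filter.1 hb).2.symm)
        · obtain ⟨h3, h4⟩ := (hmems F).1 hF
          exact ⟨(F, g), Finset.mem_filter.2
            ⟨(hmemY _).2 ⟨(maxB_center hg).2 h3, fun h => h4 h.1⟩, rfl⟩, rfl⟩
      · obtain ⟨F, h3, h4, -⟩ := huniq g hg
        refine Finset.card_eq_one.2 ⟨(F, g), Finset.eq_singleton_iff_unique_mem.2
          ⟨Finset.mem_filter.2 ⟨(hmemY _).2 ⟨h3, fun h => hg h.2⟩, rfl⟩, fun y hy => ?_⟩⟩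
        obtain ⟨hy1, hy2⟩ := Finset.mem_filter.1 hy
        rw [hmemY, hy2] at hy1
        exact Prod.ext (h4 _ hy1.1) hy2
    rw [h1, Finset.sum_congr rfl fun g _ => h2 g, Finset.sum_ite, Finset.sum_const,
      Finset.sum_const, smul_eq_mul, smul_eq_mul, mul_one, Nat.card_eq_fintype_card,
      ← Finset.card_univ, ← Finset.card_filter_add_card_filter_not (s := Finset.univ)
        (fun g => g ∈ center G)]
    ring
  -- second count of `Y`
  have hY2 : Nat.card G ∣ K.factorial * Y.card := by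
    set X := Y.image fun y => pr y.1 y.2 with hX
    have h1 : Y.card = ∑ x ∈ X, Nat.card x.1 := by
      rw [Finset.card_eq_sum_card_image (fun y : Subgroup G × G => pr y.1 y.2) Y]
      refine Finset.sum_congr rfl fun x hx => ?_
      obtain ⟨⟨F, g⟩, hy, rfl⟩ := Finset.mem_image.1 hx
      obtain ⟨h3, h4⟩ := (hmemY _).1 hy
      change _ = Nat.card F
      rw [Nat.card_eq_fintype_card, Fintype.card_subtype]
      symm
      refine Finset.card_bij (fun f _ => (F, g * f)) (fun f hf => ?_) (fun a _ b _ hab => ?_)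
        (fun y hy => ?_)
      · have hf' : f ∈ F := (Finset.mem_filter.1 hf).2
        refine Finset.mem_filter.2 ⟨(hmemY _).2 ⟨h3.mul hf', fun h => h4 ⟨h.1, ?_⟩⟩,
          (pr_eq_iff.2 ⟨rfl, by simpa using hf'⟩).symm⟩
        exact ((center G).mul_mem_cancel_right (h.1 hf')).1 h.2
      · exact mul_left_cancel (congrArg Prod.snd hab)
      · obtain ⟨h5, h6⟩ := pr_eq_iff.1 (Finset.mem_filter.1 hy).2.symm
        exact ⟨g⁻¹ * y.2, Finset.mem_filter.2 ⟨Finset.mem_univ _, h6⟩,
          Prod.ext h5 (by simp)⟩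
    rw [h1]
    refine IsPart.dvd_sum (o := orb G) (fun x : Pr G => Nat.card x.1) _ _ X
      (isPart_orb X fun x hx h => ?_) fun x hx => ?_
    · obtain ⟨⟨F, g⟩, hy, rfl⟩ := Finset.mem_image.1 hx
      obtain ⟨h3, h4⟩ := (hmemY _).1 hy
      refine Finset.mem_image.2 ⟨(cj h F, h * g * h⁻¹), (hmemY _).2 ⟨h3.cj h, fun h5 => h4
        ⟨cj_le_center h5.1, ?_⟩⟩, (smul_pr h F g).symm⟩
      simpa [mul_assoc] using (inferInstance : (center G).Normal).conj_mem _ h5.2 h⁻¹
    · obtain ⟨⟨F, g⟩, hy, rfl⟩ := Finset.mem_image.1 hx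
      obtain ⟨h3, h4⟩ := (hmemY _).1 hy
      obtain ⟨j, hj0, hjK, hj⟩ := hstab F g h3 h4
      rw [sum_orb _ _ fun h => card_cj h _, card_orb,
        ← (MulAction.stabilizer G (pr F g)).card_mul_index, hj]
      obtain ⟨a, ha⟩ := Nat.dvd_factorial hj0 hjK
      rw [ha]
      exact ⟨a, by change j * a * (_ * Nat.card F) = _; ring⟩
  have hZpos : 0 < Nat.card (center G) := Nat.card_pos
  have hmod : K.factorial * s₀.card ≡ K.factorial [MOD (center G).index] := by
    obtain ⟨a, ha⟩ := hY2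
    rw [hZcard, ← (center G).card_mul_index] at hY1
    rw [← (center G).card_mul_index] at ha
    have h1 : Nat.card (center G) * ((center G).index * a + K.factorial) =
        Nat.card (center G) * ((center G).index * K.factorial + K.factorial * s₀.card) := by
      calc _ = K.factorial * Y.card + K.factorial * Nat.card (center G) := by rw [ha]; ring
        _ = K.factorial * (Y.card + Nat.card (center G)) := by ring
        _ = _ := by rw [hY1]; ring
    have h2 := Nat.eq_of_mul_eq_mul_left hZpos h1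
    have h3 : (center G).index * K.factorial + K.factorial * s₀.card ≡
        (center G).index * a + K.factorial [MOD (center G).index] := by rw [h2]
    simpa [Nat.ModEq] using h3
  by_cases hex : ∃ F ∈ s₀, (orb G (pr F 1)).card = 1
  · obtain ⟨F, hF, h1⟩ := hex
    obtain ⟨h3, h4⟩ := (hmems F).1 hF
    obtain ⟨j, -, hjK, hj⟩ := hstab F 1 h3 fun h => h4 h.1
    refine ⟨F, h3.1.1, le_max_of_le_left ?_⟩
    have h5 := (MulAction.stabilizer G (pr F 1)).card_mul_index
    rw [← card_orb, h1, hj, mul_one, ← F.card_mul_index, mul_comm] at h5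
    rw [← Nat.eq_of_mul_eq_mul_left Nat.card_pos h5]
    exact hjK
  refine ⟨center G, isBeam_center (M := 0).1, le_max_of_le_right ?_⟩
  push Not at hex
  have hinj : Set.InjOn (fun F : Subgroup G => pr F 1) s₀ := fun a _ b _ hab =>
    (pr_eq_iff.1 hab).1
  refine hB (Pr G) (s₀.image fun F => pr F 1) (orb G) (fun x => K * Nat.card x.1) (Nat.card G)
    (center G).index Nat.card_pos (Nat.pos_of_ne_zero (center G).index_ne_zero_of_finite)
    (isPart_orb _ fun x hx h => ?_) (fun x hx => ?_) ?_ ?_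
  · obtain ⟨F, hF, rfl⟩ := Finset.mem_image.1 hx
    obtain ⟨h3, h4⟩ := (hmems F).1 hF
    refine Finset.mem_image.2 ⟨cj h F, (hmems _).2 ⟨by simpa using h3.cj h,
      fun h5 => h4 (cj_le_center h5)⟩, ?_⟩
    rw [smul_pr]
    simp
  · obtain ⟨F, hF, rfl⟩ := Finset.mem_image.1 hx
    obtain ⟨h3, h4⟩ := (hmems F).1 hF
    obtain ⟨j, -, hjK, hj⟩ := hstab F 1 h3 fun h => h4 h.1
    have h5 : Nat.card G ≤ (orb G (pr F 1)).card * (K * Nat.card F) := by
      rw [card_orb, ← (MulAction.stabilizer G (pr F 1)).card_mul_index, hj, mul_comm]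
      exact Nat.mul_le_mul_left _ (Nat.mul_le_mul_right _ hjK)
    refine ⟨?_, ?_, h5, ?_⟩
    · have h6 := hex F hF
      have h7 : (orb G (pr F 1)).card ≠ 0 := by
        rw [card_orb]
        exact index_ne_zero_of_finite
      omega
    · rw [card_orb]
      refine index_dvd_of_le fun z hz => ?_
      change z • pr F 1 = pr F 1
      rw [smul_pr]
      refine pr_eq_iff.2 ⟨?_, by simp⟩
      ext y
      rw [mem_cj, mul_assoc, mem_center_iff.1 hz y, inv_mul_cancel_left]
    · rw [sum_orb _ (fun x : Pr G => K * Nat.card x.1) fun h => by rw [smul_fst, card_cj]]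
      exact h5
  · rw [Finset.sum_image hinj]
    change ∑ F ∈ s₀, K * Nat.card F ≤ _
    rw [← Finset.mul_sum, mul_comm 2 K, mul_assoc K 2]
    refine Nat.mul_le_mul_left _ ?_
    set d : Subgroup G → Finset G := fun F =>
      Finset.univ.filter fun g => g ∈ F ∧ g ∉ center G with hd
    have h1 : ∀ F ∈ s₀, Nat.card F ≤ 2 * (d F).card := fun F hF => by
      obtain ⟨h3, h4⟩ := (hmems F).1 hF
      have h5 : (d F).card + Nat.card (center G) = Nat.card F := by
        rw [Nat.card_eq_fintype_card (α := F), Fintype.card_subtype,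
          ← Finset.card_filter_add_card_filter_not (s := Finset.univ.filter (· ∈ F))
            (fun g => g ∈ center G), Finset.filter_filter, Finset.filter_filter, add_comm,
          ← hZcard]
        congr 2
        ext g
        simp only [hZs, Finset.mem_filter, Finset.mem_univ, true_and]
        exact ⟨fun h => ⟨h3.center_le h, h⟩, fun h => h.2⟩
      obtain ⟨a, ha⟩ := card_dvd_of_le h3.center_le
      have h6 : a ≠ 1 := by
        rintro rfl
        exact h4 (eq_of_le_of_card_ge h3.center_le (by omega)).ge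
      have h7 : a ≠ 0 := by
        rintro rfl
        have : 0 < Nat.card F := Nat.card_pos
        omega
      have h8 : Nat.card (center G) * 2 ≤ Nat.card (center G) * a :=
        Nat.mul_le_mul_left _ (by omega)
      omega
    have h2 : ∑ F ∈ s₀, (d F).card ≤ Nat.card G := by
      rw [← Finset.card_biUnion, Nat.card_eq_fintype_card]
      · exact Finset.card_le_univ _
      · intro F hF F' hF' hne
        refine Finset.disjoint_left.2 fun g hg hg' => hne ?_
        simp only [hd, Finset.mem_filter, Finset.mem_univ, true_and] at hg hg'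
        obtain ⟨F₀, -, h4, -⟩ := huniq g hg.2
        have h5 := ((hmems F).1 hF).1.mul hg.1
        have h6 := ((hmems F').1 hF').1.mul hg'.1
        rw [one_mul] at h5 h6
        rw [h4 _ h5, h4 _ h6]
    calc ∑ F ∈ s₀, Nat.card F ≤ ∑ F ∈ s₀, 2 * (d F).card := Finset.sum_le_sum h1
      _ = 2 * ∑ F ∈ s₀, (d F).card := by rw [Finset.mul_sum]
      _ ≤ _ := Nat.mul_le_mul_left _ h2
  · rw [Finset.card_image_of_injOn hinj]
    exact hmod

end Cfsg.Agent.Grp.Beam
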