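import Mathlib
import Cfsg.Agent.Char.Linear
import Cfsg.Agent.PLocal.Amb

/-! An involutory automorphism inverting an abelian normal section `K/Z` (with `Z` central) and
centralizing a supplement, when a coprime operator group acts without fixed points. -/

set_option autoImplicit false
open Cfsg Subgroup
open scoped commutatorElement

namespace Cfsg.Agent.Grp.InvertAut
open Cfsg.Agent.PLocal.Amb

variable {Y : Type*} [Group Y]

/-- the pairs `(a, b)` in `K × K` with `a b ∈ Z` -/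
def pairSub (Z K : Subgroup Y) (hZ : Z ≤ center Y) (hab : ⁅K, K⁆ ≤ Z) : Subgroup (Y × Y) where
  carrier := {x | x.1 ∈ K ∧ x.2 ∈ K ∧ x.1 * x.2 ∈ Z}
  one_mem' := ⟨one_mem _, one_mem _, by simp⟩
  mul_mem' := fun {a b} ha hb => ⟨mul_mem ha.1 hb.1, mul_mem ha.2.1 hb.2.1, by
    have h1 := hab (commutator_mem_commutator hb.1 ha.2.1)
    have h2 := mem_center_iff.1 (hZ h1) a.1
    have : a.1 * b.1 * (a.2 * b.2) = ⁅b.1, a.2⁆ * ((a.1 * a.2) * (b.1 * b.2)) := by
      rw [← mul_assoc, ← mul_assoc, ← mul_assoc, ← mul_assoc, ← h2, commutatorElement_def]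
      group
    change a.1 * b.1 * (a.2 * b.2) ∈ Z
    rw [this]
    exact mul_mem h1 (mul_mem ha.2.2 hb.2.2)⟩
  inv_mem' := fun {a} ha => ⟨inv_mem ha.1, inv_mem ha.2.1, by
    have h2 := mem_center_iff.1 (hZ ha.2.2) a.2
    have : a.1⁻¹ * a.2⁻¹ = (a.1 * a.2)⁻¹ := by
      rw [← mul_assoc, mul_left_inj] at h2
      rw [← h2, mul_inv_rev]
    change a.1⁻¹ * a.2⁻¹ ∈ Z
    rw [this]
    exact inv_mem ha.2.2⟩

/-- the diagonal -/
def diag (Y : Type*) [Group Y] : Y →* Y × Y := (MonoidHom.id Y).prod (MonoidHom.id Y)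

theorem diag_injective : Function.Injective (diag Y) := fun _ _ h => congrArg Prod.fst h

theorem commutator_eq_of_mul_mem {Z : Subgroup Y} (hZ : Z ≤ center Y) {a b a' b' : Y}
    (h : a * b ∈ Z) (h' : a' * b' ∈ Z) (hc : ⁅a, a'⁆ ∈ Z) : ⁅a, a'⁆ = ⁅b, b'⁆ := by
  have e1 : b = a⁻¹ * (a * b) := by group
  have e2 : b' = a'⁻¹ * (a' * b') := by group
  generalize a * b = z at h e1
  generalize a' * b' = z' at h' e2
  have h1 := mem_center_iff.1 (hZ h)
  have h2 := mem_center_iff.1 (hZ h')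
  have h3 := mem_center_iff.1 (hZ hc) (a' * a)⁻¹
  have h4 : ⁅b, b'⁆ = a⁻¹ * a'⁻¹ * a * a' := by
    rw [e1, e2, commutatorElement_def]
    calc a⁻¹ * z * (a'⁻¹ * z') * (a⁻¹ * z)⁻¹ * (a'⁻¹ * z')⁻¹
        = a⁻¹ * (z * (a'⁻¹ * z') * z⁻¹) * a * z'⁻¹ * a' := by group
      _ = a⁻¹ * a'⁻¹ * (z' * a * z'⁻¹) * a' := by rw [← h1, mul_inv_cancel_right]; group
      _ = a⁻¹ * a'⁻¹ * a * a' := by rw [← h2, mul_inv_cancel_right]
  rw [h4, ← mul_inv_cancel_right ⁅a, a'⁆ (a' * a)⁻¹, ← h3, commutatorElement_def]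
  group

theorem exists_invert [Finite Y] {Z K J S : Subgroup Y} (hZ : Z ≤ center Y) [hK : K.Normal]
    (hZK : Z ≤ K) (hab : ⁅K, K⁆ ≤ Z) (hKJ : K ⊔ J = ⊤) (hinf : K ⊓ J ≤ Z) (hSJ : S ≤ J)
    (hZS : Z ≤ S) (hJS : J ≤ 𝐍[S]) (hcop : (Z.relIndex K).Coprime (Z.relIndex S))
    (hKS : K ≤ ⁅K, S⁆ ⊔ Z) :
    ∃ τ : MulAut Y, (∀ j ∈ J, τ j = j) ∧ (∀ k ∈ K, τ k * k ∈ Z) ∧ τ * τ = 1 := by
  classical
  haveI hZn : Z.Normal := ⟨fun z hz g => by rwa [mem_center_iff.1 (hZ hz), mul_inv_cancel_right]⟩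
  set E := pairSub Z K hZ hab with hE
  set δ := diag Y with hδ
  have hEn : ∀ y : Y, δ y ∈ 𝐍[E] := fun y => mem_normalizer_of_cj_le (cj_le_iff_forall.2
    fun x hx => ⟨hK.conj_mem _ hx.1 y, hK.conj_mem _ hx.2.1 y, by
      have := hZn.conj_mem _ hx.2.2 y
      change y * x.1 * y⁻¹ * (y * x.2 * y⁻¹) ∈ Z
      convert this using 1
      group⟩)
  have hEn' : ∀ X : Subgroup Y, X.map δ ≤ 𝐍[E] := by
    rintro X _ ⟨y, -, rfl⟩
    exact hEn y
  have hZE : Z.map δ ≤ E := by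
    rintro _ ⟨z, hz, rfl⟩
    exact ⟨hZK hz, hZK hz, mul_mem hz hz⟩
  have hcen : ∀ x : Y × Y, x.1 ∈ Z → x.2 ∈ Z → ∀ y, y * x = x * y := fun x h1 h2 y =>
    Prod.ext (mem_center_iff.1 (hZ h1) _) (mem_center_iff.1 (hZ h2) _)
  have hEE : ∀ x : E, x ∈ commutator E → (x : Y × Y).1 = (x : Y × Y).2 := by
    have : commutator E ≤ (Z.map δ).subgroupOf E := by
      rw [_root_.commutator_def, commutator_le]
      intro a _ b _
      have h1 := hab (commutator_mem_commutator a.2.1 b.2.1)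
      exact ⟨_, h1, Prod.ext rfl (commutator_eq_of_mul_mem hZ a.2.2.2 b.2.2.2 h1)⟩
    intro x hx
    obtain ⟨z, -, e⟩ := this hx
    exact (congrArg Prod.fst e).symm.trans (congrArg Prod.snd e)
  have hCE : ⁅E, S.map δ⁆ ≤ E := commutator_le.2 fun a ha b hb => by
    have := mul_mem ha (conj_mem_of_mem_normalizer (hEn' S hb) (inv_mem ha))
    simpa [commutatorElement_def, mul_assoc] using this
  have claim : ∀ c ∈ ⁅E, S.map δ⁆, c.1 ∈ Z → c.1 = c.2 := by
    intro c hc h1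
    have h2 : c.2 ∈ Z := (Z.mul_mem_cancel_left h1).1 (hCE hc).2.2
    have hpow : ∀ n : ℕ, Abelianization.of (⟨c, hCE hc⟩ : E) ^ n = 1 → (c.1 * c.2⁻¹) ^ n = 1 := by
      intro n hn
      rw [← map_pow, ← MonoidHom.mem_ker, Abelianization.ker_of] at hn
      have := hEE _ hn
      rw [Commute.mul_pow (mem_center_iff.1 (hZ h1) _).symm, inv_pow, mul_inv_eq_one]
      exact this
    have e1 := hpow (Z.relIndex K) (by
      let F : E →* Abelianization E := (powMonoidHom (Z.relIndex K)).comp Abelianization.of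
      have : ⁅E, S.map δ⁆ ≤ F.ker.map E.subtype := commutator_le.2 fun a ha b hb => by
        have hb' := conj_mem_of_mem_normalizer (hEn' S hb) (inv_mem ha)
        refine ⟨⟨a, ha⟩ * ⟨_, hb'⟩, ?_, by simp [commutatorElement_def, mul_assoc]⟩
        have h3 : (⟨b * a⁻¹ * b⁻¹, hb'⟩ : E) ^ Z.relIndex K = (⟨a, ha⟩ ^ Z.relIndex K)⁻¹ := by
          apply Subtype.ext
          simp only [SubmonoidClass.coe_pow, conj_pow, coe_inv, inv_pow]
          rw [hcen (a ^ Z.relIndex K)⁻¹ (inv_mem (Z.pow_relIndex_mem ha.1))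
            (inv_mem (Z.pow_relIndex_mem ha.2.1)), mul_inv_cancel_right]
        simp only [SetLike.mem_coe, MonoidHom.mem_ker, F, MonoidHom.comp_apply, powMonoidHom_apply,
          map_mul, mul_pow]
        rw [← map_pow, ← map_pow, h3, map_inv, mul_inv_cancel]
      obtain ⟨w, hw, e⟩ := this hc
      rw [show (⟨c, hCE hc⟩ : E) = w from Subtype.ext e.symm]
      exact hw)
    have e2 := hpow (Z.relIndex S) (by
      let B := E ⊔ S.map δ
      let φ : E.subgroupOf B →* Abelianization E :=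
        Abelianization.of.comp (subgroupOfEquivOfLe (le_sup_left : E ≤ B)).toMonoidHom
      have h3 : ∀ x : B, x⁻¹ * ⟨c, mem_sup_left (hCE hc)⟩ * x = ⟨c, mem_sup_left (hCE hc)⟩ :=
        fun x => Subtype.ext (by
          change (x : Y × Y)⁻¹ * c * x = c
          rw [hcen c h1 h2, inv_mul_cancel_right])
      have h4 := Char.transfer_eq_pow_of_conj φ ⟨c, mem_sup_left (hCE hc)⟩
        (Abelianization.of ⟨c, hCE hc⟩) (fun x => by rw [h3]; exact hCE hc) fun x => by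
          simp only [h3]; rfl
      have h5 : ⁅E, S.map δ⁆ ≤ (MonoidHom.transfer φ).ker.map B.subtype :=
        commutator_le.2 fun a ha b hb =>
          ⟨⁅(⟨a, mem_sup_left ha⟩ : B), ⟨b, mem_sup_right hb⟩⁆, by
            rw [SetLike.mem_coe, MonoidHom.mem_ker, map_commutatorElement,
              commutatorElement_eq_one_iff_mul_comm, mul_comm], rfl⟩
      obtain ⟨w, hw, e⟩ := h5 hc
      rw [show (⟨c, mem_sup_left (hCE hc)⟩ : B) = w from Subtype.ext e.symm,
        show MonoidHom.transfer φ w = 1 from hw] at h4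
      have h6 : (E.subgroupOf B).index ∣ Z.relIndex S := by
        haveI hn : (E.subgroupOf B).Normal := normal_subgroupOf' (sup_le le_normalizer (hEn' S))
        have h7 : (E.subgroupOf B) ⊔ ((S.map δ).subgroupOf B) = ⊤ := by
          rw [← subgroupOf_sup le_sup_left le_sup_right, subgroupOf_self]
        rw [← relIndex_top_right, ← h7, relIndex_sup_left, relIndex_subgroupOf le_sup_right,
          ← relIndex_map_map_of_injective Z S diag_injective]
        exact relIndex_dvd_of_le_left _ hZE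
      obtain ⟨r, hr⟩ := h6
      rw [hr, pow_mul, ← h4, one_pow])
    have := pow_gcd_eq_one.2 ⟨e1, e2⟩
    rwa [hcop.gcd_eq_one, pow_one, mul_inv_eq_one] at this
  set W := ⁅E, S.map δ⁆ ⊔ Z.map δ with hW
  have hWE : W ≤ E := sup_le hCE hZE
  have hZC : Z.map δ ≤ 𝐍[⁅E, S.map δ⁆] :=
    le_normalizer_commutator (hEn' Z) ((map_mono hZS).trans le_normalizer)
  have claim2 : ∀ w ∈ W, w.1 ∈ Z → w.1 = w.2 := by
    intro w hw h1
    obtain ⟨c, hc, _, ⟨z, hz, rfl⟩, rfl⟩ := (mem_sup_of_le_normalizer_left hZC).1 hw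
    change c.1 * z = c.2 * z
    rw [claim c hc ((Z.mul_mem_cancel_right hz).1 h1)]
  have hJW : J.map δ ≤ 𝐍[W] :=
    le_normalizer_sup (le_normalizer_commutator (hEn' J) ((map_mono hJS).trans (le_normalizer_map δ)))
      ((map_mono (le_top.trans (normalizer_eq_top Z).ge)).trans (le_normalizer_map δ))
  set D := W ⊔ J.map δ with hD
  let f : D →* Y := (MonoidHom.fst Y Y).comp D.subtype
  have hf : Function.Bijective f := by
    constructor
    · rw [injective_iff_map_eq_one]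
      rintro ⟨x, hx⟩ h1
      obtain ⟨w, hw, _, ⟨j, hj, rfl⟩, rfl⟩ := (mem_sup_of_le_normalizer_left hJW).1 hx
      change w.1 * j = 1 at h1
      have h2 : w.1 ∈ Z := hinf ⟨(hWE hw).1, by rw [eq_inv_of_mul_eq_one_left h1]; exact J.inv_mem hj⟩
      refine Subtype.ext (Prod.ext h1 ?_)
      change w.2 * j = 1
      rwa [← claim2 w hw h2]
    · have h1 : D.map (MonoidHom.fst Y Y) = ⊤ := by
        have h2 : ∀ X : Subgroup Y, (X.map δ).map (MonoidHom.fst Y Y) = X := fun X => by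
          rw [map_map]; exact map_id X
        have h3 : K ≤ E.map (MonoidHom.fst Y Y) := fun k hk =>
          ⟨(k, k⁻¹), ⟨hk, inv_mem hk, by simp⟩, rfl⟩
        rw [hD, hW, Subgroup.map_sup, Subgroup.map_sup, map_commutator, h2, h2, h2, eq_top_iff,
          ← hKJ]
        exact sup_le_sup_right (hKS.trans (sup_le_sup_right (commutator_mono h3 le_rfl) Z)) J
      intro y
      obtain ⟨x, hx, e⟩ := h1.ge (mem_top y)
      exact ⟨⟨x, hx⟩, e⟩
  let e := MulEquiv.ofBijective f hf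
  let τ : Y →* Y := ((MonoidHom.snd Y Y).comp D.subtype).comp e.symm.toMonoidHom
  have h1 : ∀ x ∈ D, τ x.1 = x.2 := fun x hx => by
    have : e.symm x.1 = ⟨x, hx⟩ := e.symm_apply_eq.2 rfl
    change ((e.symm x.1 : D) : Y × Y).2 = x.2
    rw [this]
  have h2 : ∀ y, (y, τ y) ∈ D := fun y => by
    have h3 : ((e.symm y : D) : Y × Y).1 = y := e.apply_symm_apply y
    have : (y, τ y) = ((e.symm y : D) : Y × Y) := Prod.ext h3.symm rfl
    rw [this]
    exact (e.symm y).2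
  have h3 : D.map (MulEquiv.prodComm : Y × Y ≃* Y × Y).toMonoidHom ≤ D := by
    have h4 : ∀ X : Subgroup Y,
        (X.map δ).map (MulEquiv.prodComm : Y × Y ≃* Y × Y).toMonoidHom = X.map δ := fun X => by
      rw [map_map]; rfl
    have h5 : E.map (MulEquiv.prodComm : Y × Y ≃* Y × Y).toMonoidHom ≤ E := by
      rintro _ ⟨x, hx, rfl⟩
      refine ⟨hx.2.1, hx.1, ?_⟩
      have := hZn.conj_mem _ hx.2.2 x.2
      rwa [← mul_assoc, mul_inv_cancel_right] at this
    rw [hD, hW, Subgroup.map_sup, Subgroup.map_sup, map_commutator, h4, h4, h4]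
    exact sup_le_sup_right (sup_le_sup_right (commutator_mono h5 le_rfl) _) _
  have h4 : ∀ y, τ (τ y) = y := fun y => h1 (τ y, y) (h3 ⟨_, h2 y, rfl⟩)
  refine ⟨τ.toMulEquiv τ (MonoidHom.ext h4) (MonoidHom.ext h4), fun j hj => ?_, fun k hk => ?_,
    MulEquiv.ext h4⟩
  · exact h1 (δ j) (mem_sup_right ⟨j, hj, rfl⟩)
  · obtain ⟨w, hw, _, ⟨j, hj, rfl⟩, e⟩ := (mem_sup_of_le_normalizer_left hJW).1 (h2 k)
    have e1 : k = w.1 * j := congrArg Prod.fst e
    have e2 : τ k = w.2 * j := congrArg Prod.snd e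
    have h5 : j ∈ Z := hinf ⟨(K.mul_mem_cancel_left (hWE hw).1).1 (e1 ▸ hk), hj⟩
    change τ k * k ∈ Z
    rw [e2]
    nth_rewrite 1 [e1]
    have := mul_mem (mul_mem (hZn.conj_mem _ h5 w.2) (hZn.conj_mem _ (hWE hw).2.2 w.2)) h5
    convert this using 1
    group

end Cfsg.Agent.Grp.InvertAut
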